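import Mathlib
import Cfsg.Agent.H8.PermAut

/-! Odd order automorphisms of doubly transitive groups, through symmetric designs. -/

set_option autoImplicit false

namespace Cfsg.Agent.H8

open Matrix

namespace Design

variable {G Ω : Type*} [Group G] [MulAction G Ω] [Fintype Ω] [DecidableEq Ω]

/-- The matrix `M` intertwines the actions twisted by `β` and `γ`. -/
def Inv (β γ : MulAut G) (M : Matrix Ω Ω ℤ) : Prop :=
  ∀ (g : G) (x y : Ω), M (β g • x) (γ g • y) = M x y

/-- The all-one matrix. -/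
def J (Ω : Type*) : Matrix Ω Ω ℤ := Matrix.of fun _ _ => 1

omit [DecidableEq Ω] in
theorem Inv.mul {β γ δ : MulAut G} {M N : Matrix Ω Ω ℤ} (hM : Inv β γ M) (hN : Inv γ δ N) :
    Inv β δ (M * N) := by
  intro g x y
  rw [mul_apply, mul_apply]
  exact (Fintype.sum_equiv (MulAction.toPerm (γ g)) _ _ fun z => by
    rw [MulAction.toPerm_apply, hM, hN]).symm

omit [Fintype Ω] [DecidableEq Ω] in
theorem Inv.transpose {β γ : MulAut G} {M : Matrix Ω Ω ℤ} (hM : Inv β γ M) : Inv γ β Mᵀ :=
  fun g x y => hM g y x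

omit [Fintype Ω] [DecidableEq Ω] in
theorem Inv.shift {β γ : MulAut G} {M : Matrix Ω Ω ℤ} (hM : Inv β γ M) (θ : MulAut G) :
    Inv (β * θ) (γ * θ) M := fun g x y => hM (θ g) x y

omit [Fintype Ω] [DecidableEq Ω] in
theorem inv_J (β γ : MulAut G) : Inv β γ (J Ω) := fun _ _ _ => rfl

omit [DecidableEq Ω] in
theorem J_mul_J : J Ω * J Ω = (Fintype.card Ω : ℤ) • J Ω := by
  ext x y; simp [J, mul_apply]

omit [Fintype Ω] [DecidableEq Ω] in
theorem J_transpose : (J Ω)ᵀ = J Ω := rfl

omit [Fintype Ω] in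
theorem entry (a b : ℤ) (u w : Ω) :
    (a • (1 : Matrix Ω Ω ℤ) + b • J Ω) u w = (if u = w then a else 0) + b := by
  rw [Matrix.add_apply, Matrix.smul_apply, Matrix.smul_apply, one_apply, J, of_apply]
  split_ifs <;> simp

omit [Fintype Ω] in
theorem coeff_eq [Nontrivial Ω] {a b a' b' : ℤ}
    (h : a • (1 : Matrix Ω Ω ℤ) + b • J Ω = a' • 1 + b' • J Ω) : a = a' := by
  obtain ⟨x, y, hxy⟩ := exists_pair_ne Ω
  have h1 := congrFun (congrFun h x) x
  have h2 := congrFun (congrFun h x) y
  rw [entry, entry, if_pos rfl, if_pos rfl] at h1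
  rw [entry, entry, if_neg hxy, if_neg hxy] at h2
  omega

variable (h2 : MulAction.IsMultiplyPretransitive G Ω 2)
include h2

omit [Fintype Ω] in
theorem Inv.exists_eq [Nontrivial Ω] {β : MulAut G} {M : Matrix Ω Ω ℤ} (hM : Inv β β M) :
    ∃ a b : ℤ, M = a • 1 + b • J Ω := by
  obtain ⟨x, y, hxy⟩ := exists_pair_ne Ω
  refine ⟨M x x - M x y, M x y, ?_⟩
  ext u w
  by_cases h : u = w
  · subst h
    obtain ⟨g, hg⟩ := (MulAction.isPretransitive_of_is_two_pretransitive (G := G)).exists_smul_eq x u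
    have := hM (β.symm g) x x
    rw [MulEquiv.apply_symm_apply, hg] at this
    rw [entry, if_pos rfl, this, sub_add_cancel]
  · obtain ⟨g, hg1, hg2⟩ := MulAction.is_two_pretransitive_iff.1 h2 hxy h
    have := hM (β.symm g) x y
    rw [MulEquiv.apply_symm_apply, hg1, hg2] at this
    rw [entry, if_neg h, this, zero_add]

omit [DecidableEq Ω] in
theorem Inv.mul_J {β γ : MulAut G} {M : Matrix Ω Ω ℤ} (hM : Inv β γ M) (o : Ω) :
    M * J Ω = (∑ x, M x o) • J Ω ∧ J Ω * M = (∑ x, M x o) • J Ω := by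
  have htr := MulAction.isPretransitive_of_is_two_pretransitive (G := G) (α := Ω)
  have h1 : ∀ y, ∑ x, M x y = ∑ x, M x o := by
    intro y
    obtain ⟨g, rfl⟩ := htr.exists_smul_eq o y
    have := (inv_J β β).mul hM (γ.symm g) o o
    simpa [mul_apply, J] using this
  have h3 : ∀ x, ∑ y, M x y = ∑ y, M o y := by
    intro x
    obtain ⟨g, rfl⟩ := htr.exists_smul_eq o x
    have := hM.mul (inv_J γ γ) (β.symm g) o o
    simpa [mul_apply, J] using this
  have h4 : ∑ y, M o y = ∑ x, M x o := by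
    have h5 : ∑ x, ∑ y, M x y = ∑ y, ∑ x, M x y := Finset.sum_comm
    rw [Finset.sum_congr rfl fun x _ => h3 x, Finset.sum_congr rfl fun y _ => h1 y,
      Finset.sum_const, Finset.sum_const, nsmul_eq_mul, nsmul_eq_mul] at h5
    have : Nonempty Ω := ⟨o⟩
    exact mul_left_cancel₀ (by simp) h5
  constructor
  · ext x y; simp [mul_apply, J, h3 x, h4]
  · ext x y; simp [mul_apply, J, h1 y]

theorem Inv.design [Nontrivial Ω] {β γ : MulAut G} {M : Matrix Ω Ω ℤ} (hM : Inv β γ M)
    (h01 : ∀ x y, M x y = 0 ∨ M x y = 1) (o : Ω) : ∃ n l : ℤ, M * Mᵀ = n • 1 + l • J Ω ∧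
      n * (Fintype.card Ω - 1) = (∑ x, M x o) * (Fintype.card Ω - ∑ x, M x o) := by
  obtain ⟨n, l, h⟩ := (hM.mul hM.transpose).exists_eq h2
  obtain ⟨h3, h4⟩ := hM.mul_J h2 o
  set k := ∑ x, M x o
  refine ⟨n, l, h, ?_⟩
  have h5 : k = n + l := by
    have e1 := congrFun (congrFun h o) o
    have e2 := congrFun (congrFun h3 o) o
    simp only [mul_apply, transpose_apply, J, Matrix.add_apply, Matrix.smul_apply, one_apply_eq, of_apply,
      smul_eq_mul, mul_one] at e1 e2
    rw [← e1, ← e2]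
    exact Finset.sum_congr rfl fun y _ => by rcases h01 o y with h | h <;> simp [h]
  have h6 : k * k = n + l * Fintype.card Ω := by
    have e1 : Mᵀ * J Ω = k • J Ω := by
      rw [← J_transpose, ← transpose_mul, h4, transpose_smul]
    have e2 : M * Mᵀ * J Ω = (k * k) • J Ω := by
      rw [Matrix.mul_assoc, e1, Matrix.mul_smul, h3, smul_smul]
    rw [h, add_mul, smul_mul_assoc, smul_mul_assoc, one_mul, J_mul_J, smul_smul, ← add_smul] at e2
    have := congrFun (congrFun e2 o) o
    simpa [J] using this.symm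
  linear_combination h6 - (Fintype.card Ω : ℤ) * h5

theorem key [Nontrivial Ω] {γ : MulAut G} {A C : Matrix Ω Ω ℤ} (hA : Inv 1 γ A)
    (hC : Inv 1 (γ * γ) C) (hA01 : ∀ x y, A x y = 0 ∨ A x y = 1)
    (hC01 : ∀ x y, C x y = 0 ∨ C x y = 1) (o : Ω)
    (hk : IsCoprime (∑ x, A x o) (Fintype.card Ω)) (hC0 : 0 < ∑ x, C x o)
    (hC1 : C = J Ω → ∃ c : ℤ, A * A = c • J Ω) :
    ∑ x, C x o = 1 ∨ ∑ x, C x o = Fintype.card Ω - 1 := by
  have hv : (2 : ℤ) ≤ Fintype.card Ω := by exact_mod_cast Fintype.one_lt_card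
  obtain ⟨n, l, hAA, hn⟩ := hA.design h2 hA01 o
  obtain ⟨hAJ, hJA⟩ := hA.mul_J h2 o
  obtain ⟨n₁, l₁, hAA', hn₁⟩ := hA.transpose.design h2 (fun x y => hA01 y x) o
  have e0 : ∑ x, Aᵀ x o = ∑ x, A x o := by
    have := congrFun (congrFun hAJ o) o
    simpa [mul_apply, J] using this
  rw [e0, ← hn] at hn₁
  obtain rfl : n₁ = n := mul_right_cancel₀ (by omega) hn₁
  rw [transpose_transpose] at hAA'
  obtain ⟨n', l', hCC, hn'⟩ := hC.design h2 hC01 o
  obtain ⟨hCJ, hJC⟩ := hC.mul_J h2 o
  set k := ∑ x, A x o with hkdef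
  set k' := ∑ x, C x o with hk'def
  set v : ℤ := (Fintype.card Ω : ℤ) with hvdef
  have hAtJ : Aᵀ * J Ω = k • J Ω := by rw [← J_transpose, ← transpose_mul, hJA, transpose_smul]
  have hJAt : J Ω * Aᵀ = k • J Ω := by rw [← J_transpose, ← transpose_mul, hAJ, transpose_smul]
  have hJCt : J Ω * Cᵀ = k' • J Ω := by rw [← J_transpose, ← transpose_mul, hCJ, transpose_smul]
  have hn0 : n₁ ≠ 0 := by
    rintro rfl
    rw [zero_mul, eq_comm, mul_eq_zero, sub_eq_zero] at hn
    rcases hn with h | h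
    · rw [h, isCoprime_zero_left, Int.isUnit_iff] at hk; omega
    · rw [← h, isCoprime_self, Int.isUnit_iff] at hk; omega
  have hle : ∀ {M : Matrix Ω Ω ℤ}, (∀ x y, M x y = 0 ∨ M x y = 1) → ∑ x, M x o ≤ v := by
    intro M hM
    have := Finset.sum_le_card_nsmul Finset.univ (fun x => M x o) 1 fun x _ => by
      rcases hM x o with h | h <;> simp [h]
    simpa using this
  -- every intertwiner is a combination of `A` and `J`
  have hM : Inv 1 γ (C * Aᵀ) := hC.mul (by simpa using (hA.shift γ).transpose)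
  obtain ⟨x, y, hxy⟩ : ∃ x y : ℤ, C * Aᵀ = x • A + y • J Ω := by
    set M := C * Aᵀ
    obtain ⟨a, b, hab⟩ := (hM.mul hA.transpose).exists_eq h2
    obtain ⟨hMJ, -⟩ := hM.mul_J h2 o
    have e1 : M * Aᵀ * A = a • A + (b * k) • J Ω := by
      rw [hab, add_mul, smul_mul_assoc, smul_mul_assoc, one_mul, hJA, smul_smul]
    rw [Matrix.mul_assoc, hAA', mul_add, Matrix.mul_smul, Matrix.mul_smul, mul_one, hMJ,
      smul_smul] at e1
    have e2 : ∀ u w, n₁ * M u w = a * A u w + (b * k - l₁ * ∑ x, M x o) := fun u w => by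
      have := congrFun (congrFun e1 u) w
      simp only [Matrix.add_apply, Matrix.smul_apply, J, of_apply, smul_eq_mul, mul_one] at this
      linear_combination this
    obtain ⟨u₀, hu₀⟩ : ∃ u, A u o = 0 := by
      by_contra hc
      push Not at hc
      have : k = v := by
        rw [hkdef, Finset.sum_congr rfl fun u _ => (hA01 u o).resolve_left (hc u)]; simp [hvdef]
      rw [this, sub_self, mul_zero, mul_eq_zero] at hn
      omega
    obtain ⟨u₁, hu₁⟩ : ∃ u, A u o = 1 := by
      by_contra hc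
      push Not at hc
      have : k = 0 := by
        rw [hkdef, Finset.sum_congr rfl fun u _ => (hA01 u o).resolve_right (hc u)]; simp
      rw [this, zero_mul, mul_eq_zero] at hn
      omega
    refine ⟨M u₁ o - M u₀ o, M u₀ o, ?_⟩
    ext u w
    apply mul_left_cancel₀ hn0
    have e3 := e2 u₀ o
    have e4 := e2 u₁ o
    have e5 := e2 u w
    rw [hu₀] at e3
    rw [hu₁] at e4
    simp only [Matrix.add_apply, Matrix.smul_apply, J, of_apply, smul_eq_mul, mul_one]
    linear_combination e5 - A u w * e4 + (A u w - 1) * e3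
  have e1 : n' = x ^ 2 := by
    have e2 : (C * Aᵀ) * (C * Aᵀ)ᵀ = (n₁ * n') • 1 + (n₁ * l' + l₁ * k' * k') • J Ω := by
      rw [transpose_mul, transpose_transpose, Matrix.mul_assoc, ← Matrix.mul_assoc Aᵀ, hAA',
        add_mul, smul_mul_assoc, smul_mul_assoc, one_mul, hJCt, mul_add, Matrix.mul_smul,
        Matrix.mul_smul, Matrix.mul_smul, hCC, hCJ]
      module
    have e3 : (x • A + y • J Ω) * (x • A + y • J Ω)ᵀ =
        (x ^ 2 * n₁) • 1 + (x ^ 2 * l + 2 * x * y * k + y ^ 2 * v) • J Ω := by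
      rw [transpose_add, transpose_smul, transpose_smul, J_transpose, add_mul, mul_add, mul_add]
      simp only [smul_mul_assoc, Matrix.mul_smul, hAA, hAJ, hJAt, J_mul_J]
      module
    rw [hxy, e3] at e2
    have := coeff_eq e2
    apply mul_left_cancel₀ hn0
    linear_combination -this
  have e2 : v ∣ k' - x := by
    have e3 : C * Aᵀ * J Ω = (k * k') • J Ω := by
      rw [Matrix.mul_assoc, hAtJ, Matrix.mul_smul, hCJ, smul_smul]
    rw [hxy, add_mul, smul_mul_assoc, smul_mul_assoc, hAJ, J_mul_J, smul_smul, smul_smul,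
      ← add_smul] at e3
    have e4 := congrFun (congrFun e3 o) o
    simp only [Matrix.smul_apply, J, of_apply, smul_eq_mul, mul_one] at e4
    exact hk.symm.dvd_of_dvd_mul_left ⟨y, by linear_combination -e4⟩
  have e3 : k' ≠ v := by
    intro he
    have hCJ' : C = J Ω := by
      have h5 : ∀ u, C u o = 1 := by
        have h6 : ∑ u, (1 - C u o) = 0 := by
          rw [Finset.sum_sub_distrib, ← hk'def, he]; simp [hvdef]
        rw [Finset.sum_eq_zero_iff_of_nonneg fun u _ => by rcases hC01 u o with h | h <;> simp [h]]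
          at h6
        intro u
        linear_combination -h6 u (Finset.mem_univ u)
      ext u w
      obtain ⟨g, rfl⟩ :=
        (MulAction.isPretransitive_of_is_two_pretransitive (G := G)).exists_smul_eq o w
      have := hC ((γ * γ).symm g) (((γ * γ).symm g)⁻¹ • u) o
      rw [MulEquiv.apply_symm_apply, h5] at this
      simpa [J] using this
    obtain ⟨c, hc⟩ := hC1 hCJ'
    have e4 : (A * A) * (A * A)ᵀ = (n₁ * n₁) • 1 + (n₁ * l + l * k * k) • J Ω := by
      rw [transpose_mul, Matrix.mul_assoc, ← Matrix.mul_assoc A Aᵀ, hAA,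
        add_mul, smul_mul_assoc, smul_mul_assoc, one_mul, hJAt, mul_add, Matrix.mul_smul,
        Matrix.mul_smul, Matrix.mul_smul, hAA, hAJ]
      module
    have e5 : (c • J Ω) * (c • J Ω)ᵀ = (0 : ℤ) • 1 + (c * c * v) • J Ω := by
      rw [transpose_smul, J_transpose, smul_mul_assoc, Matrix.mul_smul, J_mul_J]
      module
    rw [hc, e5] at e4
    exact hn0 (mul_self_eq_zero.1 (coeff_eq e4).symm)
  have e4 := hle hC01
  obtain ⟨c, hc⟩ := e2
  have e5 : x ^ 2 ≤ k' := by
    rw [← e1]
    by_contra hlt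
    nlinarith
  have e6 : x ^ 2 ≤ v - k' := by
    rw [← e1]
    by_contra hlt
    have : k' ≤ v - 1 := by omega
    nlinarith
  have e7 : |x| ≤ x ^ 2 := by
    rw [← sq_abs]; exact Int.le_self_sq _
  have e8 := le_abs_self x
  have e9 := neg_abs_le x
  have e10 : c = 0 ∨ c = 1 := by
    have a1 : 0 ≤ c := by nlinarith
    have a2 : c ≤ 1 := by nlinarith
    omega
  rcases e10 with rfl | rfl
  · left
    have : k' = x := by linarith
    nlinarith
  · right
    have : v - k' = -x := by linarith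
    have : 0 < v - k' := by omega
    nlinarith

/-- If the twisted action has an orbit of length coprime to the degree then the doubly twisted
action is equivalent to the natural one. -/
theorem exists_fixed [Nontrivial Ω] {γ : MulAut G} {A : Matrix Ω Ω ℤ} (hA : Inv 1 γ A)
    (hA01 : ∀ x y, A x y = 0 ∨ A x y = 1) (o : Ω)
    (hk : IsCoprime (∑ x, A x o) (Fintype.card Ω)) :
    ∃ ω : Ω, ∀ g : G, (γ * γ) g • o = o → g • ω = ω := by
  have hAA : Inv 1 (γ * γ) (A * A) := hA.mul (by simpa using hA.shift γ)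
  let C : Matrix Ω Ω ℤ := Matrix.of fun x y => if (A * A) x y = (A * A) o o then 1 else 0
  have hC : Inv 1 (γ * γ) C := fun g x y => by simp only [C, of_apply, hAA g x y]
  have hC01 : ∀ x y, C x y = 0 ∨ C x y = 1 := fun x y => by
    simp only [C, of_apply]; split_ifs <;> simp
  have hs : ∑ x, C x o = (Finset.univ.filter fun x => (A * A) x o = (A * A) o o).card := by
    simp [C]
  have hinv : ∀ g : G, (γ * γ) g • o = o → ∀ x, (A * A) (g • x) o = (A * A) x o := by
    intro g hg x
    have := hAA g x o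
    rwa [hg] at this
  have h := key h2 hA hC hA01 hC01 o hk (by
    rw [hs]
    exact_mod_cast Finset.card_pos.2 ⟨o, by simp⟩) (fun h => ⟨(A * A) o o, by
      ext x y
      have := congrFun (congrFun h x) y
      simp only [C, J, of_apply, ite_eq_left_iff, zero_ne_one, imp_false, not_not] at this
      simp [J, this]⟩)
  rw [hs] at h
  rcases h with h | h
  · obtain ⟨ω, hω⟩ := Finset.card_eq_one.1 (by exact_mod_cast h)
    refine ⟨ω, fun g hg => ?_⟩
    have h3 : ω ∈ Finset.univ.filter fun x => (A * A) x o = (A * A) o o := by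
      rw [hω]; exact Finset.mem_singleton_self ω
    rw [← Finset.mem_singleton, ← hω]
    simpa [hinv g hg] using h3
  · have h3 := Finset.card_filter_add_card_filter_not (s := Finset.univ)
      fun x => (A * A) x o = (A * A) o o
    obtain ⟨ω, hω⟩ := Finset.card_eq_one.1 (show (Finset.univ.filter fun x =>
      ¬ (A * A) x o = (A * A) o o).card = 1 by rw [Finset.card_univ] at h3; omega)
    refine ⟨ω, fun g hg => ?_⟩
    have h4 : ω ∈ Finset.univ.filter fun x => ¬ (A * A) x o = (A * A) o o := by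
      rw [hω]; exact Finset.mem_singleton_self ω
    rw [← Finset.mem_singleton, ← hω]
    simpa [hinv g hg] using h4

end Design

/-- An automorphism of odd order of a doubly transitive group is induced by a permutation if the
image of a point stabilizer has an orbit of length prime to the degree. -/
theorem exists_perm_of_odd {Ω : Type*} [Fintype Ω] (G : Subgroup (Equiv.Perm Ω))
    (h2 : MulAction.IsMultiplyPretransitive G Ω 2) (o : Ω) (α : MulAut G) (hα : Odd (orderOf α))
    (ω : Ω) (hk : (Nat.card (MulAction.orbit ((MulAction.stabilizer G o).map α.toMonoidHom) ω)).Coprime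
      (Fintype.card Ω)) : ∃ σ : Equiv.Perm Ω, σ ∈ Subgroup.normalizer (G : Set (Equiv.Perm Ω)) ∧
        ∀ g : G, ((α g : G) : Equiv.Perm Ω) = σ * (g : Equiv.Perm Ω) * σ⁻¹ := by
  classical
  have htr := MulAction.isPretransitive_of_is_two_pretransitive (G := G) (α := Ω)
  rcases subsingleton_or_nontrivial Ω with hΩ | hΩ
  · exact (exists_perm_inducing_iff G htr o α).2 ⟨o, fun _ _ => Subsingleton.elim _ _⟩
  let A : Matrix Ω Ω ℤ := Matrix.of fun x y => if ∃ g : G, g • ω = x ∧ α⁻¹ g • o = y then 1 else 0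
  have hA : Design.Inv 1 α⁻¹ A := by
    intro g x y
    simp only [A, Matrix.of_apply]
    refine if_congr ⟨?_, ?_⟩ rfl rfl
    · rintro ⟨u, h1, h3⟩
      refine ⟨g⁻¹ * u, ?_, ?_⟩
      · rw [mul_smul, h1]; exact inv_smul_smul g x
      · rw [map_mul, mul_smul, h3, map_inv, inv_smul_smul]
    · rintro ⟨u, rfl, rfl⟩
      exact ⟨g * u, mul_smul _ _ _, by rw [map_mul, mul_smul]⟩
  have hs : ∑ x, A x o =
      Nat.card (MulAction.orbit ((MulAction.stabilizer G o).map α.toMonoidHom) ω) := by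
    simp only [A, Matrix.of_apply, Finset.sum_boole, Nat.cast_inj]
    symm
    apply Nat.subtype_card
    intro x
    simp only [Finset.mem_filter, Finset.mem_univ, true_and]
    constructor
    · rintro ⟨g, rfl, hg⟩
      exact ⟨⟨g, α⁻¹ g, hg, by simp⟩, rfl⟩
    · rintro ⟨⟨_, g, hg, rfl⟩, rfl⟩
      exact ⟨α g, rfl, by simpa using hg⟩
  obtain ⟨x, hx⟩ := Design.exists_fixed h2 hA (fun x y => by
    simp only [A, Matrix.of_apply]; split_ifs <;> simp) o (by
      rw [hs]; exact Nat.isCoprime_iff_coprime.2 hk)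
  obtain ⟨σ, hσ1, hσ⟩ := (exists_perm_inducing_iff G htr o (α * α)).2
    ⟨x, fun g hg => hx _ (by simpa using hg)⟩
  have h3 : ∀ i : ℕ, ∀ g : G, ((((α * α) ^ i) g : G) : Equiv.Perm Ω) = σ ^ i * g * (σ ^ i)⁻¹ := by
    intro i
    induction i with
    | zero => simp
    | succ i ih =>
      intro g
      rw [pow_succ', MulAut.mul_apply, hσ, ih, pow_succ']; group
  obtain ⟨m, hm⟩ := hα
  refine ⟨σ ^ (m + 1), pow_mem hσ1 _, fun g => ?_⟩
  rw [← h3, ← sq, ← pow_mul, show 2 * (m + 1) = orderOf α + 1 by omega, pow_succ,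
    pow_orderOf_eq_one, one_mul]

end Cfsg.Agent.H8
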