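import Mathlib
import Cfsg.Agent.H8.Tate

/-! The Hall–Wielandt transfer theorem. -/

set_option autoImplicit false

namespace Cfsg.Agent.H8

open Cfsg
open scoped Pointwise commutatorElement

variable {G : Type*} [Group G]

open Classical in
theorem prod_eq_one_of_orbits {T Ω A : Type*} [Group T] [MulAction T Ω] [Fintype Ω] [CommMonoid A]
    (F : Ω → A) (Δ : Finset Ω) (hΔ : ∀ ω ∈ Δ, ∀ t : T, t • ω ∈ Δ)
    (h : ∀ ω ∈ Δ, ∏ ω' ∈ Finset.univ.filter (· ∈ MulAction.orbit T ω), F ω' = 1) :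
    ∏ ω ∈ Δ, F ω = 1 := by
  rw [← Finset.prod_fiberwise_of_maps_to (g := Quotient.mk (MulAction.orbitRel T Ω))
    (t := Δ.image (Quotient.mk (MulAction.orbitRel T Ω))) fun i hi => Finset.mem_image_of_mem _ hi]
  refine Finset.prod_eq_one fun j hj => ?_
  obtain ⟨ω, hω, rfl⟩ := Finset.mem_image.1 hj
  rw [← h ω hω]
  refine Finset.prod_congr ?_ fun _ _ => rfl
  ext ω'
  simp only [Finset.mem_filter, Finset.mem_univ, true_and, Quotient.eq, MulAction.orbitRel_apply]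
  exact ⟨fun h => h.2, fun h => ⟨by obtain ⟨t, rfl⟩ := h; exact hΔ ω hω t, h⟩⟩

section Partial

variable {H : Subgroup G} (τ : G ⧸ H → G) (hτ : ∀ ω, (τ ω : G ⧸ H) = ω) {A : Type*} [CommGroup A]
  (μ : H →* A)

/-- Partial transfer over a set of cosets. -/
def ptr (Δ : Finset (G ⧸ H)) (x : G) : A := ∏ ω ∈ Δ, μ (coc τ hτ x ω)

theorem prod_smul_eq {Δ : Finset (G ⧸ H)} {y : G} (hy : ∀ ω, ω ∈ Δ ↔ y • ω ∈ Δ) (f : G ⧸ H → A) :
    ∏ ω ∈ Δ, f (y • ω) = ∏ ω ∈ Δ, f ω :=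
  Finset.prod_equiv (MulAction.toPerm y) hy fun _ _ => rfl

theorem ptr_mul {Δ : Finset (G ⧸ H)} (x : G) {y : G} (hy : ∀ ω, ω ∈ Δ ↔ y • ω ∈ Δ) :
    ptr τ hτ μ Δ (x * y) = ptr τ hτ μ Δ x * ptr τ hτ μ Δ y := by
  simp only [ptr, coc_mul, map_mul, Finset.prod_mul_distrib]
  rw [prod_smul_eq hy fun ω => μ (coc τ hτ x ω)]

theorem ptr_one (Δ : Finset (G ⧸ H)) : ptr τ hτ μ Δ 1 = 1 := by
  simp [ptr, coc_one]

theorem prod_coc_smul {Δ : Finset (G ⧸ H)} (u z : G)
    (hy : ∀ ω, ω ∈ Δ ↔ (z⁻¹ * u * z) • ω ∈ Δ) :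
    ∏ ω ∈ Δ, μ (coc τ hτ u (z • ω)) = ptr τ hτ μ Δ (z⁻¹ * u * z) := by
  have h1 := ptr_mul τ hτ μ z hy
  rw [show z * (z⁻¹ * u * z) = u * z by group] at h1
  have h2 : ptr τ hτ μ Δ (u * z) = (∏ ω ∈ Δ, μ (coc τ hτ u (z • ω))) * ptr τ hτ μ Δ z := by
    simp only [ptr, coc_mul, map_mul, Finset.prod_mul_distrib]
  rw [h2, mul_comm] at h1
  exact mul_left_cancel h1

theorem coc_pow (u : G) (ω : G ⧸ H) (n : ℕ) :
    μ (coc τ hτ (u ^ n) ω) = ∏ i ∈ Finset.range n, μ (coc τ hτ u (u ^ i • ω)) := by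
  induction n with
  | zero => simp [coc_one]
  | succ n ih => rw [pow_succ', coc_mul, map_mul, ih, Finset.prod_range_succ, mul_comm]

open Classical in
theorem prod_orbit_zpowers [Finite G] [Fintype (G ⧸ H)] (u : G) (ω : G ⧸ H) :
    ∏ ω' ∈ Finset.univ.filter (· ∈ MulAction.orbit (Subgroup.zpowers u) ω), μ (coc τ hτ u ω') =
      μ (coc τ hτ (u ^ Function.minimalPeriod (u • ·) ω) ω) := by
  rw [coc_pow]
  symm
  refine Finset.prod_bij (fun i _ => u ^ i • ω) (fun i _ => ?_) (fun i hi j hj h => ?_)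
    (fun b hb => ?_) fun _ _ => rfl
  · exact Finset.mem_filter.2 ⟨Finset.mem_univ _, ⟨⟨u ^ i, Subgroup.npow_mem_zpowers u i⟩, rfl⟩⟩
  · refine Function.iterate_injOn_Iio_minimalPeriod (f := (u • ·)) (x := ω)
      (Finset.mem_range.1 hi) (Finset.mem_range.1 hj) ?_
    simpa only [smul_iterate_apply] using h
  · obtain ⟨⟨x, hx⟩, rfl⟩ := (Finset.mem_filter.1 hb).2
    obtain ⟨n, -, rfl⟩ := Finset.mem_image.1 (mem_zpowers_iff_mem_range_orderOf.1 hx)
    refine ⟨n % Function.minimalPeriod (u • ·) ω, Finset.mem_range.2 (Nat.mod_lt _ ?_), ?_⟩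
    · exact Nat.pos_of_dvd_of_pos (MulAction.pow_smul_eq_iff_minimalPeriod_dvd.1
        (by rw [pow_orderOf_eq_one, one_smul])) (orderOf_pos u)
    · exact MulAction.pow_smul_mod_minimalPeriod u ω n

end Partial

theorem cast_choose_pred_prime {p : ℕ} [hp : Fact p.Prime] (k : ℕ) (hk : k < p) :
    (((p - 1).choose k : ℕ) : ZMod p) = (-1) ^ k := by
  induction k with
  | zero => simp
  | succ k ih =>
    have h1 := Nat.choose_succ_succ' (p - 1) k
    rw [Nat.sub_add_cancel hp.out.one_le] at h1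
    have h2 : ((p.choose (k + 1) : ℕ) : ZMod p) = 0 :=
      (ZMod.natCast_eq_zero_iff _ _).2 (hp.out.dvd_choose_self k.succ_ne_zero hk)
    rw [h1, Nat.cast_add, ih (by omega)] at h2
    linear_combination h2

theorem fwdDiff_iter_pred_prime {p : ℕ} [hp : Fact p.Prime] (f : ℕ → ZMod p) :
    (fwdDiff 1)^[p - 1] f 0 = ∑ i ∈ Finset.range p, f i := by
  rw [fwdDiff_iter_eq_sum_shift, Nat.sub_add_cancel hp.out.one_le]
  refine Finset.sum_congr rfl fun k hk => ?_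
  have hk' := Finset.mem_range.1 hk
  rw [zsmul_eq_mul]
  push_cast
  rw [cast_choose_pred_prime k hk', ← pow_add, Nat.sub_add_cancel (by omega),
    ZMod.pow_card_sub_one_eq_one (neg_ne_zero.2 one_ne_zero)]
  simp

open Classical in
/-- The contribution of an orbit with a point fixed by `u` vanishes under the Engel condition. -/
theorem prod_orbit_eq_one_of_engel [Finite G] {p : ℕ} [hp : Fact p.Prime] {H : Subgroup G}
    [Fintype (G ⧸ H)] (τ : G ⧸ H → G) (hτ : ∀ ω, (τ ω : G ⧸ H) = ω)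
    (μ : H →* Multiplicative (ZMod p)) {T Q : Subgroup G} (hT : IsPGroup p T) {u : G}
    (hsup : Subgroup.zpowers u ⊔ Q = T)
    (heng : ∀ z ∈ Q, (fun y : G => y⁻¹ * z⁻¹ * y * z)^[p - 1] u = 1)
    (ω₀ : G ⧸ H) (hu : u • ω₀ = ω₀) (hQ : ¬ Q ≤ MulAction.stabilizer G ω₀) :
    ∏ ω ∈ Finset.univ.filter (· ∈ MulAction.orbit T ω₀), μ (coc τ hτ u ω) = 1 := by
  have huT : u ∈ T := hsup ▸ Subgroup.mem_sup_left (Subgroup.mem_zpowers u)
  have hQT : Q ≤ T := hsup ▸ le_sup_right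
  have hS : (MulAction.stabilizer G ω₀).subgroupOf T ≠ ⊤ := by
    rw [Ne, Subgroup.subgroupOf_eq_top]
    exact fun h => hQ (hQT.trans h)
  obtain ⟨R, hR, hSR⟩ := (eq_top_or_exists_le_coatom _).resolve_left hS
  have := hT.isNilpotent
  have hRn : R.Normal := H3.normal_of_isCoatom hR
  have hRi : Nat.card (T ⧸ R) = p := H3.index_eq_of_isCoatom hT hR
  have huR : (⟨u, huT⟩ : T) ∈ R := hSR hu
  obtain ⟨z, hzQ, hzR⟩ : ∃ z : T, (z : G) ∈ Q ∧ z ∉ R := by
    by_contra hc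
    push Not at hc
    apply hR.1
    have : T ≤ R.map T.subtype := by
      refine hsup.ge.trans
        (sup_le (Subgroup.zpowers_le.2 ⟨_, huR, rfl⟩) fun x hx => ⟨⟨x, hQT hx⟩, hc _ hx, rfl⟩)
    rw [eq_top_iff]
    intro x _
    obtain ⟨y, hy, he⟩ := this x.2
    rwa [← Subtype.ext he]
  have hz1 : (z : T ⧸ R) ≠ 1 := fun h => hzR ((QuotientGroup.eq_one_iff _).1 h)
  have hzo : orderOf (z : T ⧸ R) = p :=
    orderOf_eq_prime (by rw [← hRi]; exact pow_card_eq_one') hz1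
  set Δ : Finset (G ⧸ H) := Finset.univ.filter (· ∈ MulAction.orbit R ω₀) with hΔ
  have hmemΔ : ∀ ω, ω ∈ Δ ↔ ∃ r : T, r ∈ R ∧ (r : G) • ω₀ = ω := by
    intro ω
    rw [hΔ, Finset.mem_filter]
    exact ⟨fun ⟨_, r, hr⟩ => ⟨r, r.2, hr⟩, fun ⟨r, hr, h⟩ => ⟨Finset.mem_univ _, ⟨r, hr⟩, h⟩⟩
  have hpres : ∀ x : T, x ∈ R → ∀ ω, ω ∈ Δ ↔ (x : G) • ω ∈ Δ := by
    intro x hx ω
    rw [hmemΔ, hmemΔ]
    constructor
    · rintro ⟨r, hr, rfl⟩
      exact ⟨x * r, mul_mem hx hr, by rw [Subgroup.coe_mul, mul_smul]⟩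
    · rintro ⟨r, hr, h⟩
      exact ⟨x⁻¹ * r, mul_mem (inv_mem hx) hr, by
        rw [Subgroup.coe_mul, mul_smul, h, Subgroup.coe_inv, inv_smul_smul]⟩
  have hconj : ∀ x : T, x ∈ R → ∀ i : ℕ, (z ^ i)⁻¹ * x * z ^ i ∈ R := fun x hx i =>
    hRn.conj_mem' x hx _
  let a : T → ℕ → ZMod p := fun x i =>
    Multiplicative.toAdd (ptr τ hτ μ Δ (((z ^ i)⁻¹ * x * z ^ i : T) : G))
  have ha : ∀ x : T, x ∈ R → a (x⁻¹ * z⁻¹ * x * z) = fwdDiff 1 (a x) := by
    intro x hx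
    funext i
    have h1 : (z ^ i)⁻¹ * x * z ^ i * ((z ^ i)⁻¹ * (x⁻¹ * z⁻¹ * x * z) * z ^ i) =
        (z ^ (i + 1))⁻¹ * x * z ^ (i + 1) := by group
    have h2 : x⁻¹ * z⁻¹ * x * z ∈ R := by
      have := mul_mem (inv_mem hx) (hRn.conj_mem' x hx z)
      simpa [mul_assoc] using this
    have h3 := ptr_mul τ hτ μ (((z ^ i)⁻¹ * x * z ^ i : T) : G) (hpres _ (hconj _ h2 i))
    rw [← Subgroup.coe_mul, h1] at h3
    simp only [a, fwdDiff, h3, toAdd_mul]
    ring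
  have hiter : ∀ k : ℕ, (fun y : T => y⁻¹ * z⁻¹ * y * z)^[k] ⟨u, huT⟩ ∈ R ∧
      (((fun y : T => y⁻¹ * z⁻¹ * y * z)^[k] ⟨u, huT⟩ : T) : G) =
        (fun y : G => y⁻¹ * (z : G)⁻¹ * y * z)^[k] u ∧
      a ((fun y : T => y⁻¹ * z⁻¹ * y * z)^[k] ⟨u, huT⟩) = (fwdDiff 1)^[k] (a ⟨u, huT⟩) := by
    intro k
    induction k with
    | zero => exact ⟨huR, rfl, rfl⟩
    | succ k ih =>
      simp only [Function.iterate_succ_apply']
      refine ⟨?_, by rw [← ih.2.1]; rfl, by rw [ha _ ih.1, ih.2.2]⟩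
      have := mul_mem (inv_mem ih.1) (hRn.conj_mem' _ ih.1 z)
      simpa [mul_assoc] using this
  have hsum : ∑ i ∈ Finset.range p, a ⟨u, huT⟩ i = 0 := by
    obtain ⟨-, h2, h3⟩ := hiter (p - 1)
    rw [heng z hzQ] at h2
    rw [← fwdDiff_iter_pred_prime, ← h3, Subtype.ext (a2 := (1 : T)) h2]
    simp [a, ptr_one]
  have hprod : ∏ ω ∈ Finset.univ.filter (· ∈ MulAction.orbit T ω₀), μ (coc τ hτ u ω) =
      ∏ i ∈ Finset.range p, ∏ ω ∈ Δ, μ (coc τ hτ u (((z ^ i : T) : G) • ω)) := by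
    rw [← Finset.prod_product']
    symm
    refine Finset.prod_bij (fun x _ => ((z ^ x.1 : T) : G) • x.2) (fun x hx => ?_)
      (fun x hx y hy h => ?_) (fun b hb => ?_) fun _ _ => rfl
    · obtain ⟨r, -, hr⟩ := (hmemΔ _).1 (Finset.mem_product.1 hx).2
      refine Finset.mem_filter.2 ⟨Finset.mem_univ _, z ^ x.1 * r, ?_⟩
      rw [← hr, ← mul_smul]; rfl
    · obtain ⟨r, hr, hr'⟩ := (hmemΔ _).1 (Finset.mem_product.1 hx).2
      obtain ⟨s, hs, hs'⟩ := (hmemΔ _).1 (Finset.mem_product.1 hy).2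
      have h1 : (z ^ y.1 * s)⁻¹ * (z ^ x.1 * r) ∈ R := by
        apply hSR
        rw [Subgroup.mem_subgroupOf, MulAction.mem_stabilizer_iff, Subgroup.coe_mul, mul_smul,
          Subgroup.coe_inv, inv_smul_eq_iff, Subgroup.coe_mul, Subgroup.coe_mul, mul_smul, mul_smul,
          hr', hs']
        exact h
      rw [← QuotientGroup.eq, QuotientGroup.mk_mul, QuotientGroup.mk_mul,
        (QuotientGroup.eq_one_iff _).2 hr, (QuotientGroup.eq_one_iff _).2 hs, mul_one, mul_one,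
        QuotientGroup.mk_pow, QuotientGroup.mk_pow] at h1
      have h2 : x.1 = y.1 := (pow_injOn_Iio_orderOf (x := (z : T ⧸ R))
        (by rw [hzo]; exact Finset.mem_range.1 (Finset.mem_product.1 hy).1)
        (by rw [hzo]; exact Finset.mem_range.1 (Finset.mem_product.1 hx).1) h1).symm
      refine Prod.ext h2 ?_
      simp only [h2] at h
      exact MulAction.injective _ h
    · obtain ⟨t, rfl⟩ := (Finset.mem_filter.1 hb).2
      obtain ⟨i, hi, he⟩ := Finset.mem_image.1 (mem_zpowers_iff_mem_range_orderOf.1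
        (mem_zpowers_of_prime_card hRi (g' := (t : T ⧸ R)) hz1))
      rw [hzo] at hi
      rw [← QuotientGroup.mk_pow, QuotientGroup.eq] at he
      refine ⟨(i, (((z ^ i)⁻¹ * t : T) : G) • ω₀),
        Finset.mem_product.2 ⟨hi, (hmemΔ _).2 ⟨_, he, rfl⟩⟩, ?_⟩
      simp only
      rw [← mul_smul, ← Subgroup.coe_mul, mul_inv_cancel_left]
      rfl
  rw [hprod]
  have h1 : ∀ i ∈ Finset.range p, ∏ ω ∈ Δ, μ (coc τ hτ u (((z ^ i : T) : G) • ω)) =
      Multiplicative.ofAdd (a ⟨u, huT⟩ i) := fun i _ =>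
    prod_coc_smul τ hτ μ u _ (hpres _ (hconj _ huR i))
  rw [Finset.prod_congr rfl h1, ← ofAdd_sum, hsum, ofAdd_zero]

/-- A weakly closed subgroup of a Sylow subgroup is weakly closed in its normalizer. -/
theorem mem_normalizer_of_weaklyClosed [Finite G] {p : ℕ} [hp : Fact p.Prime] (P : Sylow p G)
    {Q : Subgroup G} (hQ : IsWeaklyClosed Q (P : Subgroup G)) {t : G}
    (ht : MulAut.conj t • Q ≤ Subgroup.normalizer (Q : Set G)) :
    t ∈ Subgroup.normalizer (Q : Set G) := by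
  have hPH : (P : Subgroup G) ≤ Subgroup.normalizer (Q : Set G) := fun x hx =>
    mem_normalizer_iff_conj_smul_eq.2 (hQ.2 x (conj_smul_le_iff.2 fun y hy =>
      mul_mem (mul_mem hx (hQ.1 hy)) (inv_mem hx)))
  obtain ⟨x, hx, hx2⟩ := exists_conj_le_of_not_dvd_relIndex P.isPGroup'
    (isPGroup_conj_smul (P.isPGroup'.to_le hQ.1) t) ht
    (fun hd => P.not_dvd_index (hd.trans (Subgroup.relIndex_dvd_index_of_le hPH)))
  rw [conj_smul_conj_smul] at hx2
  have := mem_normalizer_iff_conj_smul_eq.2 (hQ.2 _ hx2)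
  simpa using mul_mem (inv_mem hx) this

theorem le_normalizer_of_weaklyClosed {P Q : Subgroup G} (hQ : IsWeaklyClosed Q P) :
    P ≤ Subgroup.normalizer (Q : Set G) := fun x hx =>
  mem_normalizer_iff_conj_smul_eq.2 (hQ.2 x (conj_smul_le_iff.2 fun _ hy =>
    mul_mem (mul_mem hx (hQ.1 hy)) (inv_mem hx)))

/-- **The Hall–Wielandt theorem**. -/
theorem hall_wielandt [Finite G] {p : ℕ} [hp : Fact p.Prime] (P : Sylow p G) (Q : Subgroup G)
    (hQ : IsWeaklyClosed Q (P : Subgroup G))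
    (h : ∀ u ∈ (P : Subgroup G), ∀ z ∈ Q, (fun y : G => y⁻¹ * z⁻¹ * y * z)^[p - 1] u = 1) :
    pResidualOf p (Subgroup.normalizer (Q : Set G)) =
      pResidual p G ⊓ Subgroup.normalizer (Q : Set G) := by
  classical
  set H := Subgroup.normalizer (Q : Set G) with hHdef
  have hPH : (P : Subgroup G) ≤ H := le_normalizer_of_weaklyClosed hQ
  have hH : ¬ p ∣ H.index := fun hd => P.not_dvd_index (hd.trans (Subgroup.index_dvd_of_le hPH))
  by_contra hne
  obtain ⟨μ, x₀, hx₀⟩ := tate_exists_hom hH hne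
  have hA : IsPGroup p (Multiplicative (ZMod p)) := IsPGroup.of_card (n := 1) (by simp)
  have hN : ((pResidual p G).subgroupOf H).Normal := inferInstance
  -- an element of least order
  obtain ⟨x, ⟨hx, hx1⟩, hmin⟩ := (measure (orderOf : H → ℕ)).wf.has_min
    {x : H | (x : G) ∈ pResidual p G ∧ μ x ≠ 1} ⟨x₀, hx₀⟩
  obtain ⟨a, b, ha, -, hab, -, ⟨k, hk⟩, hb⟩ := exists_pPart_pPrimePart hp.out x
  have hb1 : μ b = 1 := pResidual_le_ker hA μ (mem_pResidual_of_coprime hb)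
  have ha1 : a ∈ (pResidual p G).subgroupOf H :=
    (Subgroup.zpowers_le (H := (pResidual p G).subgroupOf H)).2 hx ha
  obtain ⟨S, hS⟩ := (isPGroup_zpowers_of_orderOf hk).exists_le_sylow
  obtain ⟨g, hg⟩ := MulAction.exists_smul_eq H S (P.subtype hPH)
  have huP := conj_mem_conj_smul g (hS (Subgroup.mem_zpowers a))
  rw [← Sylow.coe_subgroup_smul, hg] at huP
  set u : H := g * a * g⁻¹ with hu
  have huN : (u : G) ∈ pResidual p G := hN.conj_mem _ ha1 g
  have hu1 : μ u ≠ 1 := by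
    rw [hab, map_mul, hb1, mul_one] at hx1
    simpa [hu] using hx1
  have humin : ∀ w : H, (w : G) ∈ pResidual p G → orderOf w < orderOf u → μ w = 1 := by
    intro w hw hlt
    by_contra hc
    apply hmin w ⟨hw, hc⟩
    have h1 : orderOf u = orderOf a := by simpa using (MulAut.conj g).orderOf_eq a
    exact hlt.trans_le (h1 ▸ Nat.le_of_dvd (orderOf_pos x) (orderOf_dvd_of_mem_zpowers ha))
  have := Fintype.ofFinite (G ⧸ H)
  let τ : G ⧸ H → G := Quotient.out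
  have hτ : ∀ ω, (τ ω : G ⧸ H) = ω := fun ω => Quotient.out_eq' ω
  -- the full transfer kills `u`
  have htot : ∏ ω, μ (coc τ hτ u ω) = 1 := by
    let V : G →* Multiplicative (ZMod p) := MonoidHom.mk' (ptr τ hτ μ Finset.univ)
      fun x y => ptr_mul τ hτ μ x (by simp)
    exact pResidual_le_ker hA V huN
  set T := Subgroup.zpowers (u : G) ⊔ Q with hT
  have hTP : T ≤ P := sup_le (Subgroup.zpowers_le.2 huP) hQ.1
  have hfix : ∀ t ∈ H, t • ((1 : G) : G ⧸ H) = ((1 : G) : G ⧸ H) := fun t ht => by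
    rw [MulAction.Quotient.smul_mk, QuotientGroup.eq]; simpa using ht
  rw [← Finset.mul_prod_erase _ _ (Finset.mem_univ ((1 : G) : G ⧸ H))] at htot
  have hrest : ∏ ω ∈ Finset.univ.erase ((1 : G) : G ⧸ H), μ (coc τ hτ u ω) = 1 := by
    apply prod_eq_one_of_orbits (T := T)
    · intro ω hω t
      refine Finset.mem_erase.2 ⟨fun he => (Finset.mem_erase.1 hω).1 ?_, Finset.mem_univ _⟩
      have := hfix _ (inv_mem (hPH (hTP t.2)))
      rw [← he] at this
      rw [← he, ← this]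
      exact (inv_smul_smul (t : G) ω).symm
    intro ω hω
    by_cases hc : ∃ ω₀ ∈ MulAction.orbit T ω, (u : G) • ω₀ = ω₀
    · obtain ⟨ω₀, hω₀, hu₀⟩ := hc
      rw [← MulAction.orbit_eq_iff.2 hω₀]
      refine prod_orbit_eq_one_of_engel τ hτ μ (P.isPGroup'.to_le hTP) rfl (h u huP) ω₀ hu₀
        fun hle => (Finset.mem_erase.1 hω).1 ?_
      obtain ⟨t, rfl⟩ := QuotientGroup.mk_surjective ω₀
      have h1 : t⁻¹ ∈ H := mem_normalizer_of_weaklyClosed P hQ (conj_smul_le_iff.2 fun y hy => by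
        have := hle (inv_mem hy)
        rw [MulAction.mem_stabilizer_iff, MulAction.Quotient.smul_mk, QuotientGroup.eq] at this
        simpa [mul_assoc] using this)
      obtain ⟨s, hs⟩ := hω₀
      have h2 : (t : G ⧸ H) = ((1 : G) : G ⧸ H) := QuotientGroup.eq.2 (by simpa using h1)
      have h3 := hfix _ (inv_mem (hPH (hTP s.2)))
      rw [← h2, ← hs] at h3
      rw [← h2, ← hs, ← h3]
      exact (inv_smul_smul (s : G) ω).symm
    · push Not at hc
      apply prod_eq_one_of_orbits (T := Subgroup.zpowers (u : G))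
      · intro ω' hω' t
        refine Finset.mem_filter.2 ⟨Finset.mem_univ _, ?_⟩
        exact MulAction.mapsTo_smul_orbit (⟨t, Subgroup.mem_sup_left t.2⟩ : T) ω
          (Finset.mem_filter.1 hω').2
      intro ω' hω'
      have hne' := hc ω' (Finset.mem_filter.1 hω').2
      rw [prod_orbit_zpowers]
      set l := Function.minimalPeriod ((u : G) • ·) ω' with hl
      have hfix' : (u : G) ^ l • ω' = ω' := MulAction.pow_smul_eq_iff_minimalPeriod_dvd.2 dvd_rfl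
      have hld : l ∣ orderOf (u : G) := MulAction.pow_smul_eq_iff_minimalPeriod_dvd.1
        (by rw [pow_orderOf_eq_one, one_smul])
      have hl1 : l ≠ 1 := fun h1 => hne' (Function.minimalPeriod_eq_one_iff_isFixedPt.1 h1)
      have hl0 : 0 < l := Nat.pos_of_dvd_of_pos hld (orderOf_pos _)
      apply humin
      · rw [coe_coc, hfix']
        exact (inferInstance : (pResidual p G).Normal).conj_mem' _ (pow_mem huN l) _
      · rw [← Subgroup.orderOf_coe, ← Subgroup.orderOf_coe, coe_coc, hfix']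
        have h1 : orderOf ((τ ω')⁻¹ * (u : G) ^ l * τ ω') = orderOf ((u : G) ^ l) := by
          simpa using (MulAut.conj (τ ω')⁻¹).orderOf_eq ((u : G) ^ l)
        rw [h1, orderOf_pow_of_dvd hl0.ne' hld]
        exact Nat.div_lt_self (orderOf_pos _) (by omega)
  rw [hrest, mul_one] at htot
  apply hu1
  have h1 : τ ((1 : G) : G ⧸ H) ∈ H := by
    have := QuotientGroup.eq.1 (hτ ((1 : G) : G ⧸ H)).symm
    simpa using this
  have h2 : coc τ hτ u ((1 : G) : G ⧸ H) = (⟨_, h1⟩ : H)⁻¹ * u * ⟨_, h1⟩ := by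
    apply Subtype.ext
    rw [coe_coc, hfix _ u.2]
    rfl
  rw [h2] at htot
  simpa using htot

end Cfsg.Agent.H8
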